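import Cfsg.Agent.H90.Four.Density
import Cfsg.Agent.H417.JThreeCols
import Cfsg.Agent.H898.J3Cent
import Cfsg.Agent.H771.KJ3

/-!
# S4171: the row `J₃` (helper90)

The strongly real classes 10AB, 17AB, 8A, 12A contain `1/10 + 1/10 + 1/17 + 1/17 + 1/8 + 1/12 > 1/2` of the elements.
-/

set_option autoImplicit false
set_option maxRecDepth 100000
set_option linter.unusedSectionVars false

namespace Cfsg.Agent.H90.Four.JThree

open Cfsg Subgroup Cfsg.Agent.H721.SR Cfsg.Agent.H777.Ore Cfsg.Agent.H90.Four
open Cfsg.Agent.J3Type.CodeGroup Cfsg.Agent.J3Type.CodeTab Cfsg.Agent.J3Type.CodeFacts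

universe u

section coded

variable {G : Type u} [Group G] [Finite G] {t : G} {D : ℕ → G}

theorem sr_of (h : Coded t D) {i j : ℕ} (hi : i < 1920) (hj : j < 1920) (h1 : mulN j j = 0)
    (h2 : mulN (mulN j i) (mulN j i) = 0) : SR (D i) := by
  have e1 : D j * D j = 1 := by rw [h.mul j hj j hj, h1, h.one]
  have e2 : D j * D i * (D j * D i) = 1 := by
    rw [h.mul j hj i hi, h.mul _ (mulN_lt hj hi) _ (mulN_lt hj hi), h2, h.one]
  refine ⟨D j, e1, ?_⟩
  have e3 : (D j)⁻¹ = D j := inv_eq_of_mul_eq_one_left e1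
  rw [e3, eq_inv_iff_mul_eq_one]
  calc D j * D i * D j * D i = D j * D i * (D j * D i) := by group
    _ = 1 := e2

theorem cent_card (h : Coded t D) {i m : ℕ} (hi : i < 1920) {k : ℕ} (hk : pw i k = 16)
    (hc : cnt (fun c => Nat.beq (mulN c i) (mulN i c)) 1920 0 = m) :
    Nat.card (centralizer ({D i} : Set G)) = m := by
  have hk' : D i ^ (k + 1) = t := (h.pw_t hi k).2 hk
  rw [← hc]
  have e : Nat.card (centralizer ({D i} : Set G)) = Nat.card {g : G // g * D i = D i * g} :=
    Nat.card_congr ((Equiv.refl G).subtypeEquiv fun g => by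
      rw [Equiv.refl_apply, mem_centralizer_singleton_iff])
  rw [e]
  refine h.card (p := fun g => g * D i = D i * g) (fun g hg => ?_) fun c hc => ?_
  · rw [← hk']
    exact ((show Commute g (D i) from hg).pow_right _).eq
  · rw [h.mul c hc i hi, h.mul i hi c hc]
    constructor
    · intro e1
      exact beq_of_eq (h.inj _ (mulN_lt hc hi) _ (mulN_lt hi hc) e1)
    · intro e1
      rw [eq_of_beq e1]

/-- conjugate elements with the same power `t` are conjugate in the centralizer -/
theorem not_conj (h : Coded t D) {i j k : ℕ} (hi : i < 1920) (hj : j < 1920) (h1 : pw i k = 16) (h2 : pw j k = 16)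
    (hn : ∀ c < 1920, mulN c i ≠ mulN j c) : ¬ IsConj (D i) (D j) := by
  intro hc
  obtain ⟨c, hc⟩ := isConj_iff.1 hc
  have e1 : D i ^ (k + 1) = t := (h.pw_t hi k).2 h1
  have e2 : D j ^ (k + 1) = t := (h.pw_t hj k).2 h2
  have e3 : c * t * c⁻¹ = t := by
    rw [← e1, ← conj_pow, hc, e2, e1]
  have e4 : c * t = t * c := by
    calc c * t = (c * t * c⁻¹) * c := by group
      _ = t * c := by rw [e3]
  obtain ⟨x, hx, rfl⟩ := h.surj c e4
  refine hn x hx (h.inj _ (mulN_lt hx hi) _ (mulN_lt hj hx) ?_)
  rw [← h.mul x hx i hi, ← h.mul j hj x hx, ← hc]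
  group

theorem ord_of (h : Coded t D) {i : ℕ} (hi : i < 1920) {n : ℕ} (hn : pw i (n - 1) = 0) (hn0 : 0 < n)
    (hd : ∀ d ∈ n.properDivisors, pw i (d - 1) ≠ 0) : orderOf (D i) = n := by
  have h1 : orderOf (D i) ∣ n := by
    have := (h.pw_one hi (n - 1)).2 hn
    rw [Nat.sub_add_cancel hn0] at this
    exact orderOf_dvd_of_pow_eq_one this
  by_contra hne
  have hpos : 0 < orderOf (D i) := orderOf_pos _
  have h2 : orderOf (D i) ∈ n.properDivisors :=
    Nat.mem_properDivisors.2 ⟨h1, lt_of_le_of_ne (Nat.le_of_dvd hn0 h1) hne⟩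
  refine hd _ h2 ((h.pw_one hi _).1 ?_)
  rw [Nat.sub_add_cancel hpos]
  exact pow_orderOf_eq_one _

end coded

theorem c97 : cnt (fun c => Nat.beq (mulN c 97) (mulN 97 c)) 1920 0 = 8 := by decide +kernel
theorem c492 : cnt (fun c => Nat.beq (mulN c 492) (mulN 492 c)) 1920 0 = 12 := by decide +kernel
theorem c528 : cnt (fun c => Nat.beq (mulN c 528) (mulN 528 c)) 1920 0 = 10 := by decide +kernel
theorem c1456 : cnt (fun c => Nat.beq (mulN c 1456) (mulN 1456 c)) 1920 0 = 10 := by decide +kernel

/-- **The row `J₃` of S4171.** -/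
theorem four_j3 {K : Type u} [Group K] (h : Spor.IsoJ3 K) : Inv4 K := by
  classical
  obtain ⟨-, hcard, -⟩ := H898.J3Cent.base h
  have hfin : Finite K := Nat.finite_of_card_ne_zero (by rw [hcard]; decide)
  have := Fintype.ofFinite K
  obtain ⟨t, D, hD, hall⟩ := H417.JThreeCols.exists_coded_iso h
  have h17 : Fact (Nat.Prime 17) := ⟨by norm_num⟩
  obtain ⟨x, hx17⟩ := exists_prime_orderOf_dvd_card' (G := K) 17 (by rw [hcard]; norm_num)
  obtain ⟨hcx, hnx⟩ := H898.J3Cent.seventeen h hx17
  have h16 : ¬ Cfsg.Agent.H92.KTools.HasOrd K 16 := by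
    rintro ⟨g, hg⟩
    have h1 : orderOf (g ^ 8) = 2 := by
      rw [orderOf_pow, hg]
      norm_num
    obtain ⟨i, hi, -, h3⟩ := hD.root (hall _ h1)
    exact root16 hi ((hD.pw_t hi 7).1 h3)
  have hx3 := H771.KJ3.not_conj_seventeen h16 hx17
  have ho3 : orderOf (x ^ 3) = 17 := by
    rw [orderOf_pow, hx17]
    norm_num
  obtain ⟨hcx3, hnx3⟩ := H898.J3Cent.seventeen h ho3
  have hsx : SR x := sr_of_prime h17.out hx17 (by rw [hcx]; norm_num) (by rw [hnx]; norm_num)
  have hsx3 : SR (x ^ 3) := sr_of_prime h17.out ho3 (by rw [hcx3]; norm_num) (by rw [hnx3]; norm_num)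
  have o97 : orderOf (D 97) = 8 := ord_of hD (by norm_num) (by decide +kernel) (by norm_num) (by decide +kernel)
  have o492 : orderOf (D 492) = 12 := ord_of hD (by norm_num) (by decide +kernel) (by norm_num) (by decide +kernel)
  have o528 : orderOf (D 528) = 10 := ord_of hD (by norm_num) (by decide +kernel) (by norm_num) (by decide +kernel)
  have o1456 : orderOf (D 1456) = 10 := ord_of hD (by norm_num) (by decide +kernel) (by norm_num) (by decide +kernel)
  have key := le_dens (G := K) ![D 528, D 1456, x, x ^ 3, D 97, D 492] ![10, 10, 17, 17, 8, 12] ?_ ?_ ?_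
  · refine inv4_of_half (half_of_sum (lt_of_lt_of_le ?_ key))
    simp only [Fin.sum_univ_succ, Fin.sum_univ_zero, Matrix.cons_val_zero, Matrix.cons_val_succ]
    norm_num
  · intro i
    fin_cases i
    · exact sr_of hD (i := 528) (j := 352) (by norm_num) (by norm_num) (by decide +kernel) (by decide +kernel)
    · exact sr_of hD (i := 1456) (j := 352) (by norm_num) (by norm_num) (by decide +kernel) (by decide +kernel)
    · exact hsx
    · exact hsx3
    · exact sr_of hD (i := 97) (j := 13) (by norm_num) (by norm_num) (by decide +kernel) (by decide +kernel)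
    · exact sr_of hD (i := 492) (j := 96) (by norm_num) (by norm_num) (by decide +kernel) (by decide +kernel)
  · have hne : ∀ {a b : K}, orderOf a ≠ orderOf b → ¬ IsConj a b := by
      intro a b h1 h2
      obtain ⟨c, rfl⟩ := isConj_iff.1 h2
      exact h1 (by rw [← MulAut.conj_apply, MulEquiv.orderOf_eq])
    have hten : ¬ IsConj (D 528) (D 1456) :=
      not_conj hD (k := 4) (by norm_num) (by norm_num) (by decide +kernel) (by decide +kernel)
        fun c hc e => ten hc e
    intro i j hij
    have hsym : ∀ {a b : K}, ¬ IsConj a b → ¬ IsConj b a := fun h1 h2 => h1 h2.symm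
    fin_cases i <;> fin_cases j
    all_goals first
      | exact absurd rfl hij
      | exact hten
      | exact hsym hten
      | exact hx3
      | exact hsym hx3
      | (refine hne ?_; simp [o97, o492, o528, o1456, hx17, ho3])
  · intro i
    fin_cases i
    · exact (cent_card hD (k := 4) (by norm_num) (by decide +kernel) c528).le
    · exact (cent_card hD (k := 4) (by norm_num) (by decide +kernel) c1456).le
    · exact hcx.le
    · exact hcx3.le
    · exact (cent_card hD (k := 3) (by norm_num) (by decide +kernel) c97).le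
    · exact (cent_card hD (k := 5) (by norm_num) (by decide +kernel) c492).le

end Cfsg.Agent.H90.Four.JThree
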